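import Cfsg.Agent.H795.RIM.AffCodim
import Cfsg.Agent.H795.RIM.U62Dat
import Cfsg.Agent.H524.RIM.EK
import Cfsg.Agent.S0280

/-!
# S4816, `U₆(2)`, `p = 5`: the module side `EK 5` (helper795)

In every central extension `E` of `U₆(2)` with kernel of order prime to 5 and every faithful `F₅ E`-module `V` the elements
of order 5 have a fixed space of codimension at least 12 (`AffCodim`, `U62Dat`); if all orbits have size prime to 5 this
codimension is at most 11, since `n₅ < 5 ^ 12`.
-/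

set_option autoImplicit false
set_option linter.unusedSectionVars false
set_option linter.style.haveILetI false

namespace Cfsg.Agent.H795.RIM.Aff

open Cfsg Cfsg.Agent.SporadicA.FieldFour Cfsg.Agent.H852.USixElts Cfsg.Agent.H524.RIM Cfsg.Agent.H665.RIM

universe u

/-! ### the number of Sylow 5-subgroups -/

theorem card_G : Nat.card (PSU 6 F4 2) = 9196830720 := by
  have h := S0280.result hF 6 (by norm_num)
  rw [show Nat.gcd 6 (2 + 1) = 3 by decide] at h
  simp only [Finset.prod_range_succ, Finset.prod_range_zero] at h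
  norm_num [Nat.even_iff] at h
  omega

theorem finite_G : Finite (PSU 6 F4 2) := Nat.finite_of_card_ne_zero (by rw [card_G]; norm_num)

theorem sylow_arith {n c : ℕ} (h : c * n = 9196830720) (hc : 30 ∣ c) (hn : n % 5 = 1) : n < 5 ^ 12 := by
  obtain ⟨k, rfl⟩ := hc
  have h1 : k * n = 306561024 := by
    have h2 : 30 * (k * n) = 30 * 306561024 := by rw [← mul_assoc, h]
    exact Nat.eq_of_mul_eq_mul_left (by norm_num) h2
  have hk0 : k ≠ 0 := by rintro rfl; omega
  have hk1 : k ≠ 1 := by rintro rfl; omega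
  have hk : 2 ≤ k := by omega
  have h2 : 2 * n ≤ 306561024 := by
    rw [← h1]
    exact Nat.mul_le_mul_right n hk
  have h3 : (5 : ℕ) ^ 12 = 244140625 := by norm_num
  omega

theorem card_sylow_lt : Nat.card (Sylow 5 (PSU 6 F4 2)) < 5 ^ 12 := by
  haveI := finite_G
  haveI : Fact (Nat.Prime 5) := ⟨by norm_num⟩
  obtain ⟨x, t, z, hx, ht, hz, hxt, hxz, -⟩ := five_sym (F := F4) rfl
  have hfac : (Nat.card (PSU 6 F4 2)).factorization 5 = 1 := by
    rw [card_G]
    have h1 : (5 : ℕ) ^ 1 ∣ 9196830720 := by norm_num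
    have h2 : ¬ (5 : ℕ) ^ 2 ∣ 9196830720 := by norm_num
    have h3 := (Nat.Prime.pow_dvd_iff_le_factorization (by norm_num) (by norm_num)).1 h1
    have h4 : ¬ 2 ≤ (9196830720 : ℕ).factorization 5 := fun h =>
      h2 ((Nat.Prime.pow_dvd_iff_le_factorization (by norm_num) (by norm_num)).2 h)
    omega
  let P : Sylow 5 (PSU 6 F4 2) := Sylow.ofCard (Subgroup.zpowers x) (by rw [Nat.card_zpowers, hx, hfac, pow_one])
  have hP : (P : Subgroup (PSU 6 F4 2)) = Subgroup.zpowers x := rfl
  set N := Subgroup.normalizer ((P : Subgroup (PSU 6 F4 2)) : Set (PSU 6 F4 2)) with hN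
  have hcen : ∀ g : PSU 6 F4 2, x * g = g * x → g ∈ N := by
    intro g hg
    rw [hN, Subgroup.mem_normalizer_iff]
    intro y
    have h1 : ∀ n : ℤ, g * x ^ n * g⁻¹ = x ^ n := by
      intro n
      have h2 : Commute x g := hg
      have h3 := (h2.zpow_left n).eq
      rw [← h3, mul_inv_cancel_right]
    change y ∈ Subgroup.zpowers x ↔ g * y * g⁻¹ ∈ Subgroup.zpowers x
    constructor
    · rintro ⟨n, rfl⟩
      exact ⟨n, (h1 n).symm⟩
    · rintro ⟨n, hn⟩
      refine ⟨n, ?_⟩
      have h2 : g * x ^ n * g⁻¹ = g * y * g⁻¹ := by rw [h1]; exact hn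
      exact mul_left_cancel (mul_right_cancel h2)
  have h5 : 5 ∣ Nat.card N := by
    have h1 := Subgroup.orderOf_dvd_natCard N (hcen x rfl)
    rwa [hx] at h1
  have h2 : 2 ∣ Nat.card N := by
    have h1 := Subgroup.orderOf_dvd_natCard N (hcen t hxt)
    rwa [ht] at h1
  have h3 : 3 ∣ Nat.card N := by
    have h1 := Subgroup.orderOf_dvd_natCard N (hcen z hxz)
    rwa [hz] at h1
  have h30 : 30 ∣ Nat.card N := by omega
  have hn := card_sylow_modEq_one 5 (PSU 6 F4 2)
  rw [P.card_eq_index_normalizer] at hn ⊢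
  have hm := N.card_mul_index
  rw [card_G] at hm
  exact sylow_arith hm h30 hn

/-- central extensions do not increase the number of Sylow subgroups -/
theorem card_sylow_le {S E : Type*} [Group S] [Group E] [Finite E] {p : ℕ} [Fact p.Prime] {π : E →* S}
    (hπ : Function.Surjective π) (hker : π.ker ≤ Subgroup.center E) (hk : ¬ p ∣ Nat.card π.ker) :
    Nat.card (Sylow p E) ≤ Nat.card (Sylow p S) := by
  haveI : Finite S := Finite.of_surjective π hπ
  refine Nat.card_le_card_of_injective (fun P : Sylow p E => P.mapSurjective hπ) ?_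
  intro P Q hPQ
  have h1 : (P : Subgroup E).map π = (Q : Subgroup E).map π := congrArg (fun R : Sylow p S => (R : Subgroup S)) hPQ
  have h2 : (P : Subgroup E) ≤ Q := by
    intro g hg
    have h3 : π g ∈ (Q : Subgroup E).map π := by
      rw [← h1]
      exact ⟨g, hg, rfl⟩
    obtain ⟨g', hg', h4⟩ := h3
    obtain ⟨c, hc, hck, rfl⟩ := cen_of hker h4.symm
    obtain ⟨n, hn⟩ := P.isPGroup' ⟨g' * c, hg⟩
    obtain ⟨m, hm⟩ := Q.isPGroup' ⟨g', hg'⟩
    have hn' : (g' * c) ^ p ^ n = 1 := congrArg Subtype.val hn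
    have hm' : g' ^ p ^ m = 1 := congrArg Subtype.val hm
    have hcomm : Commute g' c := Subgroup.mem_center_iff.1 hc g'
    have h5 : c ^ p ^ (n + m) = 1 := by
      have h6 : (g' * c) ^ p ^ (n + m) = 1 := by rw [pow_add, pow_mul, hn', one_pow]
      have h7 : g' ^ p ^ (n + m) = 1 := by rw [pow_add, mul_comm, pow_mul, hm', one_pow]
      rwa [hcomm.mul_pow, h7, one_mul] at h6
    have h6 : c ^ Nat.card π.ker = 1 := by
      have h7 : (⟨c, hck⟩ : π.ker) ^ Nat.card π.ker = 1 := pow_card_eq_one'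
      exact congrArg Subtype.val h7
    have h7 : orderOf c ∣ 1 := by
      have h8 : Nat.Coprime (p ^ (n + m)) (Nat.card π.ker) :=
        Nat.Coprime.pow_left _ ((Nat.Prime.coprime_iff_not_dvd (Fact.out : p.Prime)).2 hk)
      rw [← h8]
      exact Nat.dvd_gcd (orderOf_dvd_of_pow_eq_one h5) (orderOf_dvd_of_pow_eq_one h6)
    have h8 : c = 1 := orderOf_eq_one_iff.1 (Nat.dvd_one.1 h7)
    rw [h8, mul_one]
    exact hg'
  exact (Sylow.ext (P.is_maximal' Q.isPGroup' h2)).symm

/-- a lift of order dividing 5 -/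
theorem exists_lift {S E : Type*} [Group S] [Group E] [Finite E] {p : ℕ} (hp : p.Prime) {π : E →* S}
    (hπ : Function.Surjective π) (hk : ¬ p ∣ Nat.card π.ker) {x : S} (hx : x ^ p = 1) : ∃ y : E, π y = x ∧ y ^ p = 1 := by
  obtain ⟨y, rfl⟩ := hπ x
  have hcop : Nat.Coprime (Nat.card π.ker) p := ((Nat.Prime.coprime_iff_not_dvd hp).2 hk).symm
  obtain ⟨k, -, hk1⟩ := Nat.exists_mul_mod_eq_one_of_coprime hcop hp.one_lt
  refine ⟨y ^ (Nat.card π.ker * k), ?_, ?_⟩
  · rw [map_pow, ← Nat.div_add_mod (Nat.card π.ker * k) p, pow_add, pow_mul, hx, one_pow, one_mul, hk1, pow_one]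
  · have h1 : y ^ p ∈ π.ker := by rw [MonoidHom.mem_ker, map_pow, hx]
    have h2 : (y ^ p) ^ Nat.card π.ker = 1 := by
      have h7 : (⟨y ^ p, h1⟩ : π.ker) ^ Nat.card π.ker = 1 := pow_card_eq_one'
      exact congrArg Subtype.val h7
    rw [← pow_mul, mul_comm, pow_mul, pow_mul, h2, one_pow]

/-- **no faithful module of a central extension of `U₆(2)` with all orbits of size prime to 5** -/
theorem noPEx {E : Type u} [Group E] [Finite E] {π : E →* PSU 6 F4 2} (hπ : Function.Surjective π)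
    (hker : π.ker ≤ Subgroup.center E) (hk : ¬ 5 ∣ Nat.card π.ker) : NoPEx 5 E := by
  haveI : Fact (Nat.Prime 5) := ⟨by norm_num⟩
  refine noPEx_of_px fun V _ _ _ h => ?_
  obtain ⟨x, hx, hx5⟩ := exists_lift (p := 5) (by norm_num) hπ hk dat.x5
  have hxp : IsPGroup 5 (Subgroup.zpowers x) := by
    rintro ⟨y, hy⟩
    obtain ⟨n, rfl⟩ := hy
    refine ⟨1, Subtype.ext ?_⟩
    change (x ^ n) ^ 5 ^ 1 = 1
    rw [pow_one, ← zpow_natCast, ← zpow_mul, mul_comm, zpow_mul, zpow_natCast, hx5, one_zpow]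
  obtain ⟨P, hP⟩ := hxp.exists_le_sylow
  have h1 : (fx V (P : Subgroup E)).index < 5 ^ 12 :=
    ((h.index_le P).trans (card_sylow_le hπ hker hk)).trans_lt card_sylow_lt
  obtain ⟨d, hd⟩ := h.index_eq (fx V (P : Subgroup E))
  have h2 : d < 12 := by
    rw [hd] at h1
    exact (Nat.pow_lt_pow_iff_right (by norm_num)).1 h1
  have h3 : (fx V (Subgroup.zpowers x)).index ≤ 5 ^ 11 := by
    refine (index_fx_mono hP).trans ?_
    rw [hd]
    exact Nat.pow_le_pow_right (by norm_num) (by omega)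
  have h4 : Nat.card V ≤ 5 ^ 11 * Nat.card {v : V // x • v = v} := by
    have h5 : Nat.card {v : V // x • v = v} = Nat.card (fx V (Subgroup.zpowers x)) :=
      Nat.card_congr (Equiv.subtypeEquivRight fun v => mem_fx_zpowers.symm)
    rw [h5, ← card_mul_index V (Subgroup.zpowers x), mul_comm]
    exact Nat.mul_le_mul_right _ h3
  have h5 := codim dat hπ hker (p := 5) (by norm_num) (by norm_num) hk h.exp h.faith hx hx5 h4
  omega

/-- **`EK 5` for `U₆(2)`** -/
theorem ek_five_G {S : Type u} [Group S] [Finite S] (i : S ≃* PSU 6 F4 2) : EK.{u} 5 S := by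
  refine ek_of (by norm_num) fun Hb _ _ σ hσ hσc _ hk _ _ _ _ _ _ _ _ _ _ _ _ _ => ?_
  have hkk : (i.toMonoidHom.comp σ).ker = σ.ker := by
    ext y
    rw [MonoidHom.mem_ker, MonoidHom.mem_ker, MonoidHom.comp_apply]
    exact map_eq_one_iff i i.injective
  refine noPEx (π := i.toMonoidHom.comp σ) (i.surjective.comp hσ) ?_ ?_
  · rw [hkk]; exact hσc
  · rw [hkk]; exact hk

/-- **S4816, `U₆(2)`, `p = 5`.** -/
theorem ek_five {F : Type*} [Field F] [Fintype F] (hF : Fintype.card F = 4) {S : Type u} [Group S] [Finite S]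
    (i : S ≃* PSU 6 F 2) : EK.{u} 5 S := by
  obtain ⟨j⟩ := Cfsg.Agent.SporadicStructure.PsuMatch.psu_iso_of_card
    (F := F4) (K := F) (F4.card_eq.trans hF.symm) 6 2
  exact ek_five_G (i.trans j.symm)

theorem kill_five {F : Type*} [Field F] [Fintype F] (hF : Fintype.card F = 4) {S : Type u} [Group S] [Finite S]
    (i : S ≃* PSU 6 F 2) : Kill.{u} 5 S := Or.inr (ek_five hF i)

end Cfsg.Agent.H795.RIM.Aff
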